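import Cfsg.Agent.Lib.Compute.Schur2.Chunk
import Cfsg.Agent.Lib.Compute.Schur2.Cert
import Cfsg.Agent.Lib.Compute.Schur2.Pres
import Cfsg.Agent.Lib.Compute.Schur2.UM4Data

set_option autoImplicit false
set_option maxRecDepth 1000000
set_option Elab.async false

namespace Cfsg.Agent.Lib.Compute.Schur2.UMC

open Cfsg Cfsg.Agent.Lib.Compute.SchurLin Cfsg.Agent.Lib.Compute.Schur2 Cfsg.Agent.Lib.Compute.Schur2.Chunk

theorem base4 : upBase UM4.u = true := by decide +kernel

theorem tail4 : UP.tailCheck UM4.u UM4.d = true := by decide +kernel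

end Cfsg.Agent.Lib.Compute.Schur2.UMC
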